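import Cfsg.Agent.Lib.FusionBasics.ZStar
import Cfsg.Agent.Lib.Goldschmidt.Conjugation
import Cfsg.Agent.Lib.Involutions.BrauerSuzuki
import Cfsg.Agent.Lib.JComponents.Straddle
import Cfsg.Agent.Lib.OddOrderApps.HallExtension
import Cfsg.Agent.Lib.PGroups.Basic

/-!
A 2-group `Q` complementing a normal subgroup `N`, with a central element `t ∈ Q'` such that
`C_N(t) = C_N(Q)`: the commutator `[N, Q]` has odd order.
-/

set_option autoImplicit false

namespace CfsgLib.StronglyPEmbedded

open Cfsg Subgroup CfsgLib.JComponents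
open scoped commutatorElement

universe u

/-- The standing hypotheses. -/
structure Shared {G : Type u} [Group G] (N Q : Subgroup G) (t : G) : Prop where
  normal : N.Normal
  sup : Q ⊔ N = ⊤
  isP : IsPGroup 2 Q
  disj : Q ⊓ N = ⊥
  memQ : t ∈ Q
  central : t ∈ centralizer (Q : Set G)
  derived : t ∈ ⁅Q, Q⁆
  shared : N ⊓ centralizer ({t} : Set G) ≤ centralizer (Q : Set G)

namespace Shared

variable {G : Type u} [Group G] [Finite G] {N Q : Subgroup G} {t : G} (h : Shared N Q t)
include h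

lemma two_element : ∀ {j : ℕ}, ∃ k, (t ^ j) ^ 2 ^ k = 1 := by
  intro j
  obtain ⟨k, hk⟩ := h.isP ⟨t ^ j, pow_mem h.memQ j⟩
  exact ⟨k, congrArg Subtype.val hk⟩

/-- A `Q`-invariant 2-subgroup of `N` is centralised by `Q`. -/
lemma centralizes {R : Subgroup G} (hR : IsPGroup 2 R) (hRN : R ≤ N)
    (hQR : Q ≤ normalizer (R : Set G)) : R ≤ centralizer (Q : Set G) := by
  haveI : Fact (Nat.Prime 2) := ⟨Nat.prime_two⟩
  induction' hn : Nat.card R using Nat.strong_induction_on with n ih generalizing R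
  by_cases hR1 : R = ⊥
  · rw [hR1]; exact bot_le
  set P := Q ⊔ R with hP
  have hPp : IsPGroup 2 P := h.isP.to_sup_of_normal_right' hR hQR
  haveI := hPp.isNilpotent
  have hle : ⁅R, Q⁆ ≤ R := commutator_le.2 fun r hr q hq => by
    rw [commutatorElement_def, show r * q * r⁻¹ * q⁻¹ = r * (q * r⁻¹ * q⁻¹) by group]
    exact R.mul_mem hr (conj_mem_of_mem_normalizer (hQR hq) (R.inv_mem hr))
  have hlt : ⁅R, Q⁆ < R := by
    refine lt_of_le_of_ne hle fun e => ?_
    refine CfsgLib.PGroups.commutator_top_ne_self (N := R.subgroupOf P) ?_ (le_antisymm ?_ ?_)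
    · rw [Ne, subgroupOf_eq_bot, disjoint_iff, inf_eq_left.2 (le_sup_right : R ≤ P)]
      exact hR1
    · haveI : (R.subgroupOf P).Normal := normal_subgroupOf_of_le_normalizer
        (sup_le hQR Subgroup.le_normalizer)
      exact commutator_le_left _ _
    · intro x hx
      have hx' : (x : G) ∈ ⁅R, Q⁆ := e.symm ▸ hx
      have h2 : ⁅R, Q⁆ ≤ (⁅R.subgroupOf P, (⊤ : Subgroup ↥P)⁆).map P.subtype := by
        rw [map_commutator, map_subgroupOf_eq_of_le (le_sup_right : R ≤ P), ← MonoidHom.range_eq_map,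
          range_subtype]
        exact commutator_mono le_rfl le_sup_left
      obtain ⟨y, hy, e'⟩ := h2 hx'
      exact Subtype.ext e' ▸ hy
  have hQ1 : Q ≤ normalizer ((⁅R, Q⁆ : Subgroup G) : Set G) := le_normalizer_commutator_right R Q
  have hc := ih _ (hn ▸ Set.Finite.card_lt_card (Set.toFinite _) (SetLike.coe_ssubset_coe.2 hlt))
    (hR.to_le hle) (hle.trans hRN) hQ1 rfl
  have hb : ⁅⁅R, Q⁆, Q⁆ = ⊥ := commutator_eq_bot_iff_le_centralizer.2 hc
  have hb2 : ⁅⁅Q, R⁆, Q⁆ = ⊥ := by rw [commutator_comm Q R]; exact hb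
  have hb3 := commutator_commutator_eq_bot_of_rotate (H₁ := Q) (H₂ := Q) (H₃ := R) hb2 hb
  intro r hr
  exact h.shared (mem_inf.2 ⟨hRN hr, mem_centralizer_singleton_iff.2
    (mem_centralizer_iff.1 (commutator_eq_bot_iff_le_centralizer.1 hb3 h.derived) r hr)⟩)

/-- An element of `N` with `[t, n]` central of 2-power order commutes with `t` if its 2-part does. -/
lemma odd_part_commute {U : Subgroup G} (hU : IsPGroup 2 U) {n : G} (hno : Odd (orderOf n))
    (hc : ∀ g : G, ∀ u ∈ U, g * u = u * g) (hn : t * n * t⁻¹ * n⁻¹ ∈ U) : t * n = n * t := by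
  set u := t * n * t⁻¹ * n⁻¹ with hu
  have e : ∀ j : ℕ, t * n ^ j * t⁻¹ = u ^ j * n ^ j := by
    intro j
    induction j with
    | zero => simp
    | succ j ih =>
      calc t * n ^ (j + 1) * t⁻¹ = (t * n ^ j * t⁻¹) * (t * n * t⁻¹) := by rw [pow_succ]; group
        _ = (u ^ j * n ^ j) * (u * n) := by rw [ih]; simp [hu, mul_assoc]
        _ = u ^ j * ((n ^ j * u) * n) := by group
        _ = u ^ j * ((u * n ^ j) * n) := by rw [hc _ u hn]
        _ = u ^ (j + 1) * n ^ (j + 1) := by rw [pow_succ u, pow_succ n]; group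
  have h1 := e (orderOf n)
  rw [pow_orderOf_eq_one, mul_one, mul_one, mul_inv_cancel] at h1
  obtain ⟨k, hk⟩ := dvd_two_pow_of_mem hU hn
  have hu1 : u = 1 := orderOf_eq_one_iff.1 (Nat.eq_one_of_dvd_coprimes
    ((Nat.coprime_two_left.2 hno).pow_left k) hk (orderOf_dvd_of_pow_eq_one h1.symm))
  rw [hu, mul_inv_eq_one, mul_inv_eq_iff_eq_mul] at hu1
  exact hu1

/-- A Sylow 2-subgroup containing `Q`: `t` is central in it, and its part in `N` is centralised. -/
lemma sylow_facts {S : Sylow 2 G} (hQS : Q ≤ (S : Subgroup G)) :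
    (S : Subgroup G) ⊓ N ≤ centralizer (Q : Set G) ∧ t ∈ centralizer ((S : Subgroup G) : Set G) := by
  haveI := h.normal
  have hQn : Q ≤ normalizer (((S : Subgroup G) ⊓ N : Subgroup G) : Set G) := fun q hq =>
    mem_normalizer_of_forall fun x hx => mem_inf.2
      ⟨mul_mem (mul_mem (hQS hq) (mem_inf.1 hx).1) (inv_mem (hQS hq)),
        h.normal.conj_mem x (mem_inf.1 hx).2 q⟩
  have hR := h.centralizes (S.2.to_le inf_le_left) inf_le_right hQn
  refine ⟨hR, mem_centralizer_iff.2 fun s hs => ?_⟩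
  obtain ⟨q, hq, n, hn, rfl⟩ := mem_sup_of_normal_right.1 (h.sup ▸ mem_top s : s ∈ Q ⊔ N)
  have hnS : n ∈ (S : Subgroup G) := by simpa using mul_mem (inv_mem (hQS hq)) hs
  have h1 : Commute q t := mem_centralizer_iff.1 h.central q hq
  have h2 : Commute t n := mem_centralizer_iff.1 (hR (mem_inf.2 ⟨hnS, hn⟩)) t h.memQ
  exact (h1.mul_left h2.symm).eq

/-- The hypotheses pass to the normaliser of a `Q`-invariant subgroup, or to any `Q`-overgroup. -/
lemma restrict {H : Subgroup G} (hQH : Q ≤ H) :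
    Shared (N.subgroupOf H) (Q.subgroupOf H) (⟨t, hQH h.memQ⟩ : ↥H) := by
  haveI := h.normal
  refine ⟨inferInstance, ?_, h.isP.comap_subtype, ?_, mem_subgroupOf.2 h.memQ, ?_, ?_, ?_⟩
  · refine eq_top_iff.2 fun x _ => ?_
    obtain ⟨q, hq, n, hn, e⟩ := mem_sup_of_normal_right.1 (h.sup ▸ mem_top (x : G) : (x : G) ∈ Q ⊔ N)
    have hnH : n ∈ H := by
      have := H.mul_mem (H.inv_mem (hQH hq)) x.2
      rwa [← e, inv_mul_cancel_left] at this
    rw [show x = (⟨q, hQH hq⟩ : ↥H) * ⟨n, hnH⟩ from Subtype.ext e.symm]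
    exact mul_mem_sup (mem_subgroupOf.2 hq) (mem_subgroupOf.2 hn)
  · rw [eq_bot_iff]
    rintro x ⟨hx, hx'⟩
    exact mem_bot.2 (Subtype.ext (mem_bot.1 (h.disj ▸ mem_inf.2 ⟨hx, hx'⟩ : (x : G) ∈ (⊥ : Subgroup G))))
  · exact mem_centralizer_iff.2 fun x hx => Subtype.ext (mem_centralizer_iff.1 h.central x hx)
  · have e : (⁅Q.subgroupOf H, Q.subgroupOf H⁆).map H.subtype = ⁅Q, Q⁆ := by
      rw [map_commutator, map_subgroupOf_eq_of_le hQH]
    obtain ⟨y, hy, hyt⟩ := e.ge h.derived
    rwa [show (⟨t, hQH h.memQ⟩ : ↥H) = y from Subtype.ext hyt.symm]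
  · rintro x ⟨hxN, hxt⟩
    have := h.shared (mem_inf.2 ⟨hxN, mem_centralizer_singleton_iff.2
      (congrArg Subtype.val (mem_centralizer_singleton_iff.1 hxt))⟩)
    exact mem_centralizer_iff.2 fun q hq => Subtype.ext (mem_centralizer_iff.1 this q hq)

/-- Modulo a normal odd subgroup the hypotheses persist. -/
lemma exists_lift {O : Subgroup G} [O.Normal] (hO : Odd (Nat.card O)) {n : G}
    (hn : n * t * n⁻¹ * t⁻¹ ∈ O) :
    ∃ o ∈ O, (o * n) * t = t * (o * n) := by
  set X := zpowers t ⊔ O with hX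
  have hT2 : IsPGroup 2 ↥(zpowers t) := h.isP.to_le (zpowers_le.2 h.memQ)
  have hSyl : IsSylowTwoIn (zpowers t) X := by
    refine ⟨le_sup_left, hT2, ?_⟩
    have h1 := card_sup_mul_inf (fun x _ => mem_normalizer_of_forall fun y hy => Normal.conj_mem inferInstance y hy x : zpowers t ≤ normalizer (O : Set G))
    have h2 := card_mul_relIndex' (le_sup_left : zpowers t ≤ X)
    rw [← h2, mul_assoc] at h1
    refine Odd.of_dvd_nat hO (Dvd.intro _ (Nat.eq_of_mul_eq_mul_left Nat.card_pos h1))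
  have hSyl2 := isSylowTwoIn_conj hSyl n
  have hXn : X.map (MulAut.conj n).toMonoidHom = X := by
    refine eq_of_le_of_card_ge ?_ (card_map_of_injective (MulAut.conj n).injective).ge
    rw [hX, Subgroup.map_sup, sup_le_iff]
    refine ⟨?_, ?_⟩
    · rw [MonoidHom.map_zpowers, zpowers_le]
      show n * t * n⁻¹ ∈ _
      rw [show n * t * n⁻¹ = (n * t * n⁻¹ * t⁻¹) * t by group]
      exact mul_mem (mem_sup_right hn) (mem_sup_left (mem_zpowers t))
    · rintro _ ⟨o, ho, rfl⟩
      exact mem_sup_right (Normal.conj_mem inferInstance o ho n)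
  rw [hXn] at hSyl2
  obtain ⟨w, hw, e⟩ := exists_conj_eq hSyl hSyl2
  obtain ⟨a, ha, o, ho, rfl⟩ := mem_sup_of_normal_right.1 hw
  refine ⟨o, ho, ?_⟩
  have hmem : o * (n * t * n⁻¹) * o⁻¹ ∈ zpowers t := by
    have h1 : a * o * (n * t * n⁻¹) * (a * o)⁻¹ ∈ zpowers t := by
      rw [← e]
      exact ⟨n * t * n⁻¹, ⟨t, mem_zpowers t, rfl⟩, rfl⟩
    have h2 := mul_mem (mul_mem (inv_mem ha) h1) ha
    rwa [show a⁻¹ * (a * o * (n * t * n⁻¹) * (a * o)⁻¹) * a = o * (n * t * n⁻¹) * o⁻¹ by group] at h2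
  have hmem' : o * (n * t * n⁻¹) * o⁻¹ * t⁻¹ ∈ zpowers t ⊓ O := by
    refine mem_inf.2 ⟨mul_mem hmem (inv_mem (mem_zpowers t)), ?_⟩
    rw [show o * (n * t * n⁻¹) * o⁻¹ * t⁻¹ = o * (n * t * n⁻¹ * t⁻¹) * (t * o⁻¹ * t⁻¹) by group]
    exact mul_mem (mul_mem ho hn) (Normal.conj_mem inferInstance _ (inv_mem ho) t)
  have hbot : zpowers t ⊓ O = ⊥ := by
    refine card_eq_one.1 ?_
    obtain ⟨k, hk⟩ := IsPGroup.iff_card.1 hT2
    exact Nat.eq_one_of_dvd_coprimes ((Nat.coprime_two_left.2 hO).pow_left k)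
      (hk ▸ card_dvd_of_le inf_le_left) (card_dvd_of_le inf_le_right)
  rw [hbot, mem_bot, mul_inv_eq_one] at hmem'
  calc o * n * t = (o * (n * t * n⁻¹) * o⁻¹) * (o * n) := by group
    _ = t * (o * n) := by rw [hmem']

end Shared

theorem commutator_le_oddCore : ∀ (m : ℕ) (G : Type u) [Group G] [Finite G] (N Q : Subgroup G) (t : G),
    Nat.card G = m → Shared N Q t → ⁅N, Q⁆ ≤ oddCore G := by
  intro m
  induction m using Nat.strong_induction_on with
  | _ m ih =>
  intro G _ _ N Q t hm h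
  haveI : Fact (Nat.Prime 2) := ⟨Nat.prime_two⟩
  haveI := h.normal
  haveI hOn : (oddCore G).Normal :=
    haveI := CfsgLib.Cores.pPrimeCore_characteristic 2 G; inferInstance
  have hlocal : ∀ H : Subgroup G, H ≠ ⊤ → Q ≤ H → ∀ n ∈ N, n ∈ H →
      ∃ O : Subgroup G, Odd (Nat.card O) ∧ n * t * n⁻¹ * t⁻¹ ∈ O ∧
        (H ≤ normalizer (O : Set G)) ∧ O ≤ H ∧ ⁅N.subgroupOf H, Q.subgroupOf H⁆.map H.subtype ≤ O := by
    intro H hH hQH n hn hnH
    have hlt : Nat.card H < m := hm ▸ lt_of_le_of_ne (card_le_card_group H)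
      fun e => hH (card_eq_iff_eq_top H |>.1 e)
    have hle := ih _ hlt ↥H (N.subgroupOf H) (Q.subgroupOf H) ⟨t, hQH h.memQ⟩ rfl (h.restrict hQH)
    haveI : (oddCore ↥H).Normal :=
      haveI := CfsgLib.Cores.pPrimeCore_characteristic 2 ↥H; inferInstance
    refine ⟨(oddCore ↥H).map H.subtype, ?_, ?_, ?_, map_subtype_le _, map_mono hle⟩
    · rw [card_map_of_injective H.subtype_injective]; exact CfsgLib.Cores.odd_card_oddCore
    · have := hle (commutator_mem_commutator (mem_subgroupOf.2 hn : (⟨n, hnH⟩ : ↥H) ∈ N.subgroupOf H)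
        (mem_subgroupOf.2 h.memQ : (⟨t, hQH h.memQ⟩ : ↥H) ∈ Q.subgroupOf H))
      exact ⟨_, this, by simp [commutatorElement_def]⟩
    · intro x hx
      refine mem_normalizer_of_forall ?_
      rintro _ ⟨y, hy, rfl⟩
      exact ⟨⟨x, hx⟩ * y * ⟨x, hx⟩⁻¹, Normal.conj_mem inferInstance y hy _, rfl⟩
  -- reduce to a trivial odd core
  by_cases hO : oddCore G = ⊥
  swap
  · set O := oddCore G with hOdef
    set π := QuotientGroup.mk' O with hπ
    have hodd : Odd (Nat.card O) := CfsgLib.Cores.odd_card_oddCore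
    have hON : O ≤ N := by
      intro o ho
      obtain ⟨q, hq, n, hn, rfl⟩ := mem_sup_of_normal_right.1 (h.sup ▸ mem_top o : o ∈ Q ⊔ N)
      have hcard : Odd (orderOf (q * n)) :=
        Odd.of_dvd_nat hodd (Subgroup.orderOf_dvd_natCard O ho)
      have hd : orderOf (QuotientGroup.mk' N (q * n)) ∣ orderOf (q * n) := orderOf_map_dvd _ _
      obtain ⟨k, hk⟩ := dvd_two_pow_of_mem h.isP hq
      have hqe : QuotientGroup.mk' N (q * n) = QuotientGroup.mk' N q := by
        rw [map_mul, show QuotientGroup.mk' N n = 1 from (QuotientGroup.eq_one_iff n).2 hn, mul_one]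
      have h1 : orderOf (QuotientGroup.mk' N q) = 1 := Nat.eq_one_of_dvd_coprimes
        ((Nat.coprime_two_left.2 hcard).pow_left k) ((orderOf_map_dvd _ q).trans hk) (hqe ▸ hd)
      have hqN : q ∈ N := (QuotientGroup.eq_one_iff q).1 (orderOf_eq_one_iff.1 h1)
      exact N.mul_mem hqN hn
    have hsh : Shared (N.map π) (Q.map π) (π t) := by
      have hs : Function.Surjective π := QuotientGroup.mk'_surjective O
      refine ⟨Normal.map inferInstance _ hs, ?_, h.isP.map _, ?_, mem_map_of_mem _ h.memQ, ?_, ?_, ?_⟩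
      · rw [← Subgroup.map_sup, h.sup, map_top_of_surjective π hs]
      · rw [eq_bot_iff]
        rintro _ ⟨⟨q, hq, rfl⟩, n, hn, e⟩
        have hqN : q ∈ N := by
          have h1 : n⁻¹ * q ∈ O := (QuotientGroup.eq).1 e
          have := N.mul_mem hn (hON h1)
          rwa [mul_inv_cancel_left] at this
        rw [mem_bot, show q = 1 from mem_bot.1 (h.disj ▸ mem_inf.2 ⟨hq, hqN⟩), map_one]
      · refine mem_centralizer_iff.2 ?_
        rintro _ ⟨q, hq, rfl⟩
        rw [← map_mul, ← map_mul, mem_centralizer_iff.1 h.central q hq]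
      · rw [← map_commutator]; exact mem_map_of_mem _ h.derived
      · rintro _ ⟨⟨n, hn, rfl⟩, hc⟩
        have hc' := mem_centralizer_singleton_iff.1 hc
        rw [← map_mul, ← map_mul] at hc'
        have hmem : n * t * n⁻¹ * t⁻¹ ∈ O := by
          rw [← QuotientGroup.eq_one_iff]
          show π (n * t * n⁻¹ * t⁻¹) = 1
          rw [map_mul, map_mul _ (n * t), hc', ← map_mul, ← map_mul]
          simp
        obtain ⟨o, ho, he⟩ := h.exists_lift hodd hmem
        have hz := h.shared (mem_inf.2 ⟨N.mul_mem (hON ho) hn, mem_centralizer_singleton_iff.2 he⟩)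
        refine mem_centralizer_iff.2 ?_
        rintro _ ⟨q, hq, rfl⟩
        have hon : π (o * n) = π n := by
          rw [map_mul, show π o = 1 from (QuotientGroup.eq_one_iff o).2 ho, one_mul]
        rw [← hon, ← map_mul, ← map_mul, mem_centralizer_iff.1 hz q hq]
    have hlt : Nat.card (G ⧸ O) < m := by
      rw [← hm, Subgroup.card_eq_card_quotient_mul_card_subgroup O]
      exact lt_mul_of_one_lt_right Nat.card_pos ((one_lt_card_iff_ne_bot _).2 hO)
    have hle := ih _ hlt (G ⧸ O) _ _ _ rfl hsh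
    rw [← map_commutator, show oddCore (G ⧸ O) = ⊥ from CfsgLib.Cores.pPrimeCore_quotient_pPrimeCore 2,
      le_bot_iff, Subgroup.map_eq_bot_iff, QuotientGroup.ker_mk'] at hle
    exact hle
  suffices hNC : ∀ n ∈ N, t * n = n * t by
    rw [show ⁅N, Q⁆ = ⊥ from commutator_eq_bot_iff_le_centralizer.2 fun n hn =>
      h.shared (mem_inf.2 ⟨hn, mem_centralizer_singleton_iff.2 (hNC n hn).symm⟩)]
    exact bot_le
  by_cases hU : ∃ U : Subgroup G, U.Normal ∧ U ≤ N ∧ IsPGroup 2 U ∧ U ≠ ⊥
  · obtain ⟨U, hUn, hUN, hU2, hU1⟩ := hU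
    haveI := hUn
    have hUQ := h.centralizes hU2 hUN (fun x _ => mem_normalizer_of_forall fun y hy => Normal.conj_mem inferInstance y hy x)
    set C := centralizer (U : Set G) with hC
    have hQC : Q ≤ C := le_centralizer_iff.1 hUQ
    by_cases hM : N ≤ C
    · -- `U` is central
      have hcent : U ≤ center G := by
        intro u hu
        refine mem_center_iff.2 fun g => ?_
        have : g ∈ C := (sup_le hQC hM) (h.sup ▸ mem_top g)
        exact (mem_centralizer_iff.1 this u hu).symm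
      set π := QuotientGroup.mk' U with hπ
      have hs : Function.Surjective π := QuotientGroup.mk'_surjective U
      have hcm : ∀ g : G, ∀ u ∈ U, g * u = u * g := fun g u hu => mem_center_iff.1 (hcent hu) g
      have hfix : ∀ n ∈ N, t * n * t⁻¹ * n⁻¹ ∈ U → t * n = n * t := by
        intro n hn hnU
        have hpow : ∀ j : ℕ, t * n ^ j * t⁻¹ * (n ^ j)⁻¹ ∈ U := by
          intro j
          induction j with
          | zero => simp
          | succ j ih =>
            rw [show t * n ^ (j + 1) * t⁻¹ * (n ^ (j + 1))⁻¹ = (t * n ^ j * t⁻¹ * (n ^ j)⁻¹) *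
              (n ^ j * (t * n * t⁻¹ * n⁻¹) * (n ^ j)⁻¹) by rw [pow_succ]; group]
            exact U.mul_mem ih (Normal.conj_mem inferInstance _ hnU _)
        obtain ⟨a, b, hab, ⟨k, hk⟩, hb⟩ := exists_two_parts n
        have hbc := h.odd_part_commute hU2 hb hcm (hpow b)
        suffices hac : t * n ^ a = n ^ a * t by
          rw [← hab]; exact ((show Commute t _ from hac).mul_right hbc).eq
        set M₁ := N ⊓ (centralizer ({π t} : Set (G ⧸ U))).comap π with hM₁
        have hM₁mem : ∀ {y}, y ∈ N → t * y * t⁻¹ * y⁻¹ ∈ U → y ∈ M₁ := fun {y} hy hyU =>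
          mem_inf.2 ⟨hy, mem_centralizer_singleton_iff.2 (by
            have e : π (t * y * t⁻¹ * y⁻¹) = 1 := (QuotientGroup.eq_one_iff _).2 hyU
            rw [map_mul, map_mul, map_mul, map_inv, map_inv, mul_inv_eq_one, mul_inv_eq_iff_eq_mul] at e
            exact e.symm)⟩
        have hall : ∀ y ∈ M₁, t * y * t⁻¹ * y⁻¹ ∈ U := fun y hy => by
          rw [← QuotientGroup.eq_one_iff]
          show π (t * y * t⁻¹ * y⁻¹) = 1
          rw [map_mul, map_mul _ (t * y), map_mul, ← mem_centralizer_singleton_iff.1 (mem_inf.1 hy).2,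
            ← map_mul, ← map_mul, ← map_mul]
          simp
        have hQM : Q ≤ normalizer (M₁ : Set G) := fun q hq => mem_normalizer_of_forall fun y hy => by
          refine hM₁mem (h.normal.conj_mem y (mem_inf.1 hy).1 q) ?_
          have hqt : q * t = t * q := mem_centralizer_iff.1 h.central q hq
          have hqt' : t * q * t⁻¹ = q := by rw [← hqt, mul_inv_cancel_right]
          rw [show t * (q * y * q⁻¹) * t⁻¹ * (q * y * q⁻¹)⁻¹ =
            (t * q * t⁻¹) * (t * y * t⁻¹) * (t * q * t⁻¹)⁻¹ * (q * y⁻¹ * q⁻¹) by group, hqt',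
            show q * (t * y * t⁻¹) * q⁻¹ * (q * y⁻¹ * q⁻¹) = q * (t * y * t⁻¹ * y⁻¹) * q⁻¹ by group]
          exact Normal.conj_mem inferInstance _ (hall y hy) q
        obtain ⟨S, hS, hQS⟩ := exists_isSylowTwoIn_ge (le_sup_left : Q ≤ Q ⊔ M₁) h.isP
        have hSQ : Q ≤ normalizer ((S ⊓ M₁ : Subgroup G) : Set G) := fun q hq =>
          mem_normalizer_of_forall fun z hz => mem_inf.2
            ⟨S.mul_mem (S.mul_mem (hQS hq) (mem_inf.1 hz).1) (S.inv_mem (hQS hq)),
              conj_mem_of_mem_normalizer (hQM hq) (mem_inf.1 hz).2⟩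
        have hSc := h.centralizes (hS.2.1.to_le inf_le_left) (inf_le_right.trans inf_le_left) hSQ
        have hnM : n ^ a ∈ M₁ := hM₁mem (N.pow_mem hn a) (hpow a)
        obtain ⟨x, hx, hle⟩ := exists_conj_le hS ((zpowers_le.2 hnM).trans le_sup_right)
          (isPGroup_zpowers_of_dvd hk)
        rw [mem_sup_iff_of_le_normalizer hQM] at hx
        obtain ⟨q, hq, y, hy, rfl⟩ := hx
        have hmS : (q * y) * n ^ a * (q * y)⁻¹ ∈ S ⊓ M₁ :=
          mem_inf.2 ⟨hle ⟨n ^ a, mem_zpowers _, rfl⟩, by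
            rw [show q * y * n ^ a * (q * y)⁻¹ = q * (y * n ^ a * y⁻¹) * q⁻¹ by group]
            exact conj_mem_of_mem_normalizer (hQM hq) (M₁.mul_mem (M₁.mul_mem hy hnM) (M₁.inv_mem hy))⟩
        have h1 : Commute t ((q * y) * n ^ a * (q * y)⁻¹) :=
          mem_centralizer_iff.1 (hSc hmS) t h.memQ
        have hqt : Commute t q := (mem_centralizer_iff.1 h.central q hq).symm
        have h2 : Commute t (y * n ^ a * y⁻¹) := by
          have := (hqt.inv_right.mul_right h1).mul_right hqt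
          rwa [show q⁻¹ * ((q * y) * n ^ a * (q * y)⁻¹) * q = y * n ^ a * y⁻¹ by group] at this
        obtain ⟨u, hu, hue⟩ : ∃ u ∈ U, t * n ^ a * t⁻¹ = u * n ^ a :=
          ⟨_, hpow a, by group⟩
        -- `[t, ·]` is unchanged by conjugation
        have h3 : t * (y * n ^ a * y⁻¹) * t⁻¹ =
            (t * y * t⁻¹) * (u * n ^ a) * (t * y * t⁻¹)⁻¹ := by rw [← hue]; group
        rw [h2.eq, mul_inv_cancel_right] at h3
        by_cases hyU : t * y * t⁻¹ * y⁻¹ ∈ U
        · obtain ⟨u', hu', hue'⟩ : ∃ u' ∈ U, t * y * t⁻¹ = u' * y := ⟨_, hyU, by group⟩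
          rw [hue', show (u' * y) * (u * n ^ a) * (u' * y)⁻¹ = u' * (y * u) * n ^ a * y⁻¹ * u'⁻¹ by group,
            hcm y u hu, show u' * (u * y) * n ^ a * y⁻¹ * u'⁻¹ = u' * (u * (y * n ^ a * y⁻¹)) * u'⁻¹ by
              group, ← hcm _ u' hu', mul_inv_cancel_right, right_eq_mul] at h3
          rw [h3, one_mul, mul_inv_eq_iff_eq_mul] at hue
          exact hue
        · exfalso
          exact hyU (hall y hy)
      have hsh : Shared (N.map π) (Q.map π) (π t) := by
        refine ⟨Normal.map inferInstance _ hs, ?_, h.isP.map _, ?_, mem_map_of_mem _ h.memQ, ?_, ?_, ?_⟩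
        · rw [← Subgroup.map_sup, h.sup, map_top_of_surjective π hs]
        · rw [eq_bot_iff]
          rintro _ ⟨⟨q, hq, rfl⟩, n, hn, e⟩
          have hqN : q ∈ N := by
            have := N.mul_mem hn (hUN ((QuotientGroup.eq).1 e))
            rwa [mul_inv_cancel_left] at this
          rw [mem_bot, show q = 1 from mem_bot.1 (h.disj ▸ mem_inf.2 ⟨hq, hqN⟩), map_one]
        · refine mem_centralizer_iff.2 ?_
          rintro _ ⟨q, hq, rfl⟩
          rw [← map_mul, ← map_mul, mem_centralizer_iff.1 h.central q hq]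
        · rw [← map_commutator]; exact mem_map_of_mem _ h.derived
        · rintro _ ⟨⟨n, hn, rfl⟩, hc⟩
          have hc' := mem_centralizer_singleton_iff.1 hc
          rw [← map_mul, ← map_mul] at hc'
          have hmem : t * n * t⁻¹ * n⁻¹ ∈ U := by
            rw [← QuotientGroup.eq_one_iff]
            show π (t * n * t⁻¹ * n⁻¹) = 1
            rw [map_mul, map_mul _ (t * n), ← hc', ← map_mul, ← map_mul]
            simp
          have hz := h.shared (mem_inf.2 ⟨hn, mem_centralizer_singleton_iff.2 (hfix n hn hmem).symm⟩)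
          refine mem_centralizer_iff.2 ?_
          rintro _ ⟨q, hq, rfl⟩
          rw [← map_mul, ← map_mul, mem_centralizer_iff.1 hz q hq]
      have hlt : Nat.card (G ⧸ U) < m := by
        rw [← hm, Subgroup.card_eq_card_quotient_mul_card_subgroup U]
        exact lt_mul_of_one_lt_right Nat.card_pos ((one_lt_card_iff_ne_bot _).2 hU1)
      have hle := ih _ hlt (G ⧸ U) _ _ _ rfl hsh
      rw [CfsgLib.FusionBasics.oddCore_quotient_central hO U hcent hU2, le_bot_iff, ← map_commutator,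
        Subgroup.map_eq_bot_iff, QuotientGroup.ker_mk'] at hle
      intro n hn
      refine hfix n hn ?_
      have h1 := U.inv_mem (hle (commutator_mem_commutator hn h.memQ))
      rwa [commutatorElement_def, mul_inv_rev, mul_inv_rev, mul_inv_rev, inv_inv, inv_inv,
        ← mul_assoc, ← mul_assoc] at h1
    · -- `C_N(U)` is a proper normal subgroup containing `[N, Q]`
      set M := N ⊓ C with hMdef
      haveI hMn : M.Normal := inferInstance
      set H := Q ⊔ M with hH
      have hQH : Q ≤ H := le_sup_left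
      have hHne : H ≠ ⊤ := by
        intro e
        refine hM fun n hn => ?_
        have hnH : n ∈ H := e.symm ▸ mem_top n
        obtain ⟨q, hq, y, hy, rfl⟩ := mem_sup_of_normal_right.1 (hH ▸ hnH)
        have hqN : q ∈ N := by
          have := N.mul_mem hn (N.inv_mem (mem_inf.1 hy).1)
          rwa [mul_inv_cancel_right] at this
        rw [show q = 1 from mem_bot.1 (h.disj ▸ mem_inf.2 ⟨hq, hqN⟩), one_mul]
        exact (mem_inf.1 hy).2
      have hMH : M ≤ H := le_sup_right
      have hMQ : ⁅M, Q⁆ = ⊥ := by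
        obtain ⟨O, hOo, -, hHO, -, hle⟩ := hlocal H hHne hQH 1 N.one_mem H.one_mem
        have h1 : ⁅M, Q⁆ ≤ O := by
          refine le_trans ?_ hle
          rw [map_commutator, map_subgroupOf_eq_of_le hQH]
          refine commutator_mono (fun y hy => ?_) le_rfl
          exact ⟨⟨y, hMH hy⟩, (mem_inf.1 hy).1, rfl⟩
        have h2 : ⁅M, Q⁆ ≤ M := commutator_le.2 fun y hy q _ => by
          rw [commutatorElement_def, show y * q * y⁻¹ * q⁻¹ = y * (q * y⁻¹ * q⁻¹) by group]
          exact M.mul_mem hy (hMn.conj_mem _ (M.inv_mem hy) q)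
        -- the odd normal subgroup `O ⊓ M` of `M` lies in `O(G)`
        have hodd : Odd (Nat.card ↥(O ⊓ M : Subgroup G)) :=
          Odd.of_dvd_nat hOo (card_dvd_of_le inf_le_left)
        haveI : ((O ⊓ M).subgroupOf M).Normal := normal_subgroupOf_of_le_normalizer
          (fun g hg => mem_normalizer_of_forall fun z hz => mem_inf.2
            ⟨conj_mem_of_mem_normalizer (hHO (hMH hg)) (mem_inf.1 hz).1,
              M.mul_mem (M.mul_mem hg (mem_inf.1 hz).2) (M.inv_mem hg)⟩)
        have h3 : (O ⊓ M).subgroupOf M ≤ oddCore ↥M := CfsgLib.Cores.le_oddCore (by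
          rw [Nat.card_congr (subgroupOfEquivOfLe inf_le_right).toEquiv]; exact hodd)
        haveI : (oddCore ↥M).Characteristic := CfsgLib.Cores.pPrimeCore_characteristic 2 ↥M
        have h4 : (oddCore ↥M).map M.subtype ≤ oddCore G := CfsgLib.Cores.le_oddCore (by
          rw [card_map_of_injective M.subtype_injective]; exact CfsgLib.Cores.odd_card_oddCore)
        refine le_bot_iff.1 (hO ▸ ((le_inf h1 h2).trans (le_trans ?_ h4)))
        conv_lhs => rw [← map_subgroupOf_eq_of_le (inf_le_right : O ⊓ M ≤ M)]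
        exact map_mono h3
      have hNQM : ⁅N, Q⁆ ≤ M := by
        refine commutator_le.2 fun n hn q hq => mem_inf.2 ⟨?_, ?_⟩
        · rw [commutatorElement_def, show n * q * n⁻¹ * q⁻¹ = n * (q * n⁻¹ * q⁻¹) by group]
          exact N.mul_mem hn (h.normal.conj_mem _ (N.inv_mem hn) q)
        · rw [commutatorElement_def]
          exact C.mul_mem (Normal.conj_mem inferInstance q (hQC hq) n) (C.inv_mem (hQC hq))
      have hb : ⁅⁅N, Q⁆, Q⁆ = ⊥ := le_bot_iff.1 (hMQ ▸ commutator_mono hNQM le_rfl)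
      have hb2 : ⁅⁅Q, N⁆, Q⁆ = ⊥ := by rw [commutator_comm Q N]; exact hb
      have hb3 := commutator_commutator_eq_bot_of_rotate (H₁ := Q) (H₂ := Q) (H₃ := N) hb2 hb
      exact fun n hn => (mem_centralizer_iff.1 (commutator_eq_bot_iff_le_centralizer.1 hb3 h.derived) n hn).symm
  -- no normal 2-subgroup: `t` is isolated
  push Not at hU
  obtain ⟨S, hS⟩ := h.isP.exists_le_sylow
  obtain ⟨hSc, htS⟩ := h.sylow_facts hS
  have key : ∀ (A : Set G) (g : G), CfsgLib.Goldschmidt.Conj S A g →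
      ∀ a ∈ A, a ∈ zpowers t → g⁻¹ * a * g = a := by
    intro A g hg
    induction hg with
    | centralize A c hc =>
      intro a ha _
      rw [mul_assoc, mem_centralizer_iff.1 hc a ha, inv_mul_cancel_left]
    | step A D x g hA hD hx _ ih =>
      intro a ha hat
      suffices hxa : x⁻¹ * a * x = a by
        have := ih a ⟨a, ha, hxa⟩ hat
        calc (x * g)⁻¹ * a * (x * g) = g⁻¹ * (x⁻¹ * a * x) * g := by group
          _ = a := by rw [hxa, this]
      obtain ⟨hDS, hcen, ⟨-, -, -, hdisj, hsup⟩, htame⟩ := hD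
      -- `t ∈ D`
      have hDtc : t ∈ centralizer (D : Set G) :=
        centralizer_le (show (D : Set G) ⊆ ((S : Subgroup G) : Set G) from hDS) htS
      have htD : t ∈ D := by
        have h1 := hcen hDtc
        rw [← hsup] at h1
        have hDn : D ≤ normalizer (((pPrimeCore 2 ↥(normalizer (D : Set G))).map
            (normalizer (D : Set G)).subtype : Subgroup G) : Set G) := by
          intro d hd
          refine mem_normalizer_of_forall ?_
          rintro _ ⟨y, hy, rfl⟩
          haveI : (pPrimeCore 2 ↥(normalizer (D : Set G))).Normal :=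
            haveI := CfsgLib.Cores.pPrimeCore_characteristic 2 ↥(normalizer (D : Set G)); inferInstance
          exact ⟨⟨d, Subgroup.le_normalizer hd⟩ * y * ⟨d, Subgroup.le_normalizer hd⟩⁻¹,
            Normal.conj_mem inferInstance y hy _, rfl⟩
        rw [sup_comm, mem_sup_iff_of_le_normalizer hDn] at h1
        obtain ⟨d, hd, o, ho, e⟩ := h1
        have hoS : o ∈ (S : Subgroup G) := by
          have := mul_mem (inv_mem (hDS hd)) (hS h.memQ)
          rwa [← e, inv_mul_cancel_left] at this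
        obtain ⟨k, hk⟩ := dvd_two_pow_of_mem S.2 hoS
        have ho1 : o = 1 := by
          refine orderOf_eq_one_iff.1 (Nat.eq_one_of_dvd_coprimes
            (Nat.Coprime.pow_left k ?_) hk (Subgroup.orderOf_dvd_natCard _ ho))
          rw [card_map_of_injective (normalizer (D : Set G)).subtype_injective]
          exact (CfsgLib.Cores.card_pPrimeCore_coprime 2).symm
        rw [← e, ho1, mul_one]; exact hd
      -- odd part
      set Y := normalizer (D : Set G) with hY
      have hxin : x ∈ (Y ⊓ N) ⊔ ((S : Subgroup G) ⊓ Y) := by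
        have hle : ((Y ⊓ N) ⊔ ((S : Subgroup G) ⊓ Y)).relIndex Y = 1 := by
          have d1 : ((Y ⊓ N) ⊔ ((S : Subgroup G) ⊓ Y)).relIndex Y ∣ ((S : Subgroup G) ⊓ Y).relIndex Y :=
            relIndex_dvd_of_le_left Y le_sup_right
          have d2 : ((Y ⊓ N) ⊔ ((S : Subgroup G) ⊓ Y)).relIndex Y ∣ (Y ⊓ N).relIndex Y :=
            relIndex_dvd_of_le_left Y le_sup_left
          rw [inf_relIndex_left] at d2
          have d3 : N.relIndex Y ∣ Nat.card (G ⧸ N) := N.relIndex_dvd_index_of_normal Y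
          obtain ⟨k, hk⟩ : ∃ k, Nat.card (G ⧸ N) = 2 ^ k := by
            have hp : IsPGroup 2 (G ⧸ N) := h.isP.of_surjective ((QuotientGroup.mk' N).comp Q.subtype) (by
              intro y
              obtain ⟨y, rfl⟩ := QuotientGroup.mk'_surjective N y
              obtain ⟨q, hq, n, hn, rfl⟩ := mem_sup_of_normal_right.1 (h.sup ▸ mem_top y : y ∈ Q ⊔ N)
              refine ⟨⟨q, hq⟩, ?_⟩
              show QuotientGroup.mk' N q = _
              rw [map_mul, show QuotientGroup.mk' N n = 1 from (QuotientGroup.eq_one_iff n).2 hn, mul_one])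
            exact IsPGroup.iff_card.1 hp
          exact Nat.eq_one_of_dvd_coprimes
            (((Nat.prime_two.coprime_iff_not_dvd).2 htame).pow_left k) (hk ▸ d2.trans d3) d1
        exact relIndex_eq_one.1 hle hx
      have hYn : ((S : Subgroup G) ⊓ Y) ≤ normalizer ((Y ⊓ N : Subgroup G) : Set G) :=
        inf_le_right.trans fun y hy => mem_normalizer_of_forall fun z hz =>
          mem_inf.2 ⟨Y.mul_mem (Y.mul_mem hy (mem_inf.1 hz).1) (Y.inv_mem hy),
            h.normal.conj_mem z (mem_inf.1 hz).2 y⟩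
      rw [sup_comm, mem_sup_iff_of_le_normalizer hYn] at hxin
      obtain ⟨s, hs, n, hn, rfl⟩ := hxin
      have hnt : n * t = t * n := by
        set DR := D ⊓ N with hDR
        have hmem : n * t * n⁻¹ * t⁻¹ ∈ DR := mem_inf.2
          ⟨D.mul_mem (conj_mem_of_mem_normalizer (mem_inf.1 hn).1 htD) (D.inv_mem htD), by
            rw [show n * t * n⁻¹ * t⁻¹ = n * (t * n⁻¹ * t⁻¹) by group]
            exact N.mul_mem (mem_inf.1 hn).2 (h.normal.conj_mem _ (N.inv_mem (mem_inf.1 hn).2) t)⟩
        by_cases hDR1 : DR = ⊥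
        · rw [hDR1, mem_bot, mul_inv_eq_one, mul_inv_eq_iff_eq_mul] at hmem
          exact hmem
        have hQD : Q ≤ normalizer (DR : Set G) := fun q hq => mem_normalizer_of_forall fun z hz => by
          have hc := mem_centralizer_iff.1 (hSc (mem_inf.2 ⟨hDS (mem_inf.1 hz).1, (mem_inf.1 hz).2⟩)) q hq
          rw [hc, mul_inv_cancel_right]
          exact hz
        have hne : normalizer (DR : Set G) ≠ ⊤ := fun e => hDR1
          (hU DR (normalizer_eq_top_iff.1 e) inf_le_right (S.2.to_le (inf_le_left.trans hDS)))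
        have hnDR : n ∈ normalizer (DR : Set G) := mem_normalizer_of_forall fun z hz => mem_inf.2
          ⟨conj_mem_of_mem_normalizer (mem_inf.1 hn).1 (mem_inf.1 hz).1,
            h.normal.conj_mem z (mem_inf.1 hz).2 n⟩
        obtain ⟨O, hOo, hmO, -, -, -⟩ := hlocal _ hne hQD n (mem_inf.1 hn).2 hnDR
        obtain ⟨k, hk⟩ := dvd_two_pow_of_mem (S.2.to_le (inf_le_left.trans hDS)) hmem
        have h1 := orderOf_eq_one_iff.1 (Nat.eq_one_of_dvd_coprimes
          ((Nat.coprime_two_left.2 hOo).pow_left k) hk (Subgroup.orderOf_dvd_natCard _ hmO))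
        rw [mul_inv_eq_one, mul_inv_eq_iff_eq_mul] at h1
        exact h1
      obtain ⟨j, rfl⟩ := mem_zpowers_iff.1 hat
      have hst : Commute s t := mem_centralizer_iff.1 htS s (mem_inf.1 hs).1
      have hcm : Commute (s * n) t := hst.mul_left hnt
      rw [mul_assoc, ← (hcm.zpow_right j).eq, inv_mul_cancel_left]
  intro n hn
  have hZ : CfsgLib.FusionBasics.ZStarHyp.{u} := fun H _ _ P u hu _ hiso =>
    CfsgLib.Involutions.zstar_isolated P hu hiso
  have := CfsgLib.FusionBasics.commutator_mem_oddCore_of_isolated hZ _ G rfl S t (hS h.memQ) (fun j g hg => by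
    have hj : t ^ j ∈ zpowers t := pow_mem (mem_zpowers t) j
    have := key {t ^ j} g⁻¹ (CfsgLib.Goldschmidt.conj_of_fusion S
      (Set.singleton_subset_iff.2 (pow_mem (hS h.memQ) j))
      (by rintro _ ⟨_, rfl, rfl⟩; rw [inv_inv]; exact hg)) (t ^ j) rfl hj
    rwa [inv_inv] at this) n
  rw [hO, mem_bot, mul_inv_eq_one, mul_inv_eq_iff_eq_mul] at this
  exact this

end CfsgLib.StronglyPEmbedded

namespace CfsgLib.StronglyPEmbedded

open Cfsg Subgroup

/-- Row S2962, given the Odd Order Theorem. -/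
theorem shared_centralizer_commutator_solvable_odd.{v} (hFT : CfsgLib.OddOrderApps.OddOrder.{v})
    {G : Type v} [Group G] [Finite G] (N Q : Subgroup G) [N.Normal] (hG : Q ⊔ N = ⊤)
    (hQ : IsPGroup 2 ↥Q) (hdisj : Q ⊓ N = ⊥) (t : G)
    (htZ : t ∈ Q ⊓ Subgroup.centralizer (Q : Set G)) (htQ : t ∈ ⁅Q, Q⁆)
    (hC : N ⊓ Subgroup.centralizer (Q : Set G) = N ⊓ Subgroup.centralizer ({t} : Set G)) :
    Group.IsSolvable ↥⁅N, Q⁆ ∧ Odd (Nat.card ↥⁅N, Q⁆) := by
  have hle := commutator_le_oddCore (Nat.card G) G N Q t rfl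
    ⟨inferInstance, hG, hQ, hdisj, (mem_inf.1 htZ).1, (mem_inf.1 htZ).2, htQ, hC ▸ inf_le_right⟩
  have hodd : Odd (Nat.card ↥⁅N, Q⁆) :=
    Odd.of_dvd_nat CfsgLib.Cores.odd_card_oddCore (card_dvd_of_le hle)
  exact ⟨hFT _ hodd, hodd⟩

end CfsgLib.StronglyPEmbedded
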